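import Cfsg.Agent.H836.JFi22
import Cfsg.Agent.H517.Ore.MAll
import Cfsg.Agent.H6.ORE.Coset
import Cfsg.Agent.H559.FiSpec
import Cfsg.Agent.H777.Ore.Base

/-!
# `Fi22`: the 2-elements are commutators (helper3)

They lie in `2¹⁰:M22`; in `M22` every element is `[a, b]` with `a` of order 11 (helper517), and such an `a` has no fixed
point on `2¹⁰` (coset lemma, helper6).
-/

set_option autoImplicit false
set_option linter.style.longLine false
set_option maxRecDepth 4000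

namespace Cfsg.Agent.H3.Ore.FTwo

open Cfsg Cfsg.Spor Subgroup
open Cfsg.Agent.KFacts.FiTTh Cfsg.Agent.KFacts.FiTTh.BasDef
open Cfsg.Agent.Fischer.Fi23Z (z0)
open Cfsg.Agent.H836.JFi22 (E z0_mem)
open Cfsg.Agent.H777.Ore (IsC)
open Cfsg.Agent.R08.FlagData (pi')
open Cfsg.Agent.R01.Start (zel)

theorem exists_m0 : ∃ m ∈ Spor.M23, m (some 13) = some 0 := by
  obtain ⟨m, hm⟩ := BasCode.exists_map_emb (n := 2) (by norm_num)
    ⟨![none, some 13], by
      intro x y
      fin_cases x <;> fin_cases y <;> simp⟩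
    ⟨![none, some 0], by
      intro x y
      fin_cases x <;> fin_cases y <;> simp⟩
  exact ⟨m, BasDef.mem_M23.2 ⟨m.2, hm 0⟩, hm 1⟩

/-- `C(z0)` -/
abbrev C0 : Subgroup Fi23 := centralizer ({z0} : Set Fi23)

/-- the preimage of `2¹⁰:M22` in `2.Fi22` -/
abbrev N0 : Subgroup C0 := (normalizer (A BasFi.e : Set Fi23)).subgroupOf C0

theorem ind_13 {n : ↥(normalizer (A BasFi.e : Set Fi23))} (hn : (n : Fi23) * z0 = z0 * n) :
    ((BasInv.base.ind n : Spor.M23) : Equiv.Perm GolayPt) (some 13) = some 13 := by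
  have h1 := Base.ind_spec BasInv.base n (some 13)
  rw [BasFi.e_z, hn, mul_inv_cancel_right, ← BasFi.e_z] at h1
  exact (BasInv.base.inj h1).symm

theorem exists_phi : ∃ φ : N0 →* Spor.M22, Function.Surjective φ ∧ ∀ x : N0, φ x = 1 ↔ ((x : C0) : Fi23) ∈ A BasFi.e := by
  obtain ⟨m0, hm0, h0⟩ := exists_m0
  let j : N0 →* ↥(normalizer (A BasFi.e : Set Fi23)) :=
    { toFun := fun x => ⟨((x : C0) : Fi23), mem_subgroupOf.1 x.2⟩
      map_one' := rfl
      map_mul' := fun x y => rfl }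
  have hjc : ∀ x : N0, ((j x : ↥(normalizer (A BasFi.e : Set Fi23))) : Fi23) * z0 = z0 * (j x : Fi23) := fun x =>
    mem_centralizer_singleton_iff.1 (x : C0).2
  let ψ : N0 →* Equiv.Perm GolayPt :=
    (MulAut.conj m0).toMonoidHom.comp ((Spor.M23.subtype.comp BasInv.base.ind).comp j)
  have hψ : ∀ x, ψ x = m0 * ((BasInv.base.ind (j x) : Spor.M23) : Equiv.Perm GolayPt) * m0⁻¹ := fun x => rfl
  have hmem : ∀ x, ψ x ∈ Spor.M22 := by
    intro x
    rw [hψ]
    refine Subgroup.mem_inf.2 ⟨mul_mem (mul_mem hm0 (BasInv.base.ind (j x)).2) (inv_mem hm0), ?_⟩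
    rw [MulAction.mem_stabilizer_iff]
    show m0 (((BasInv.base.ind (j x) : Spor.M23) : Equiv.Perm GolayPt) (m0⁻¹ (some 0))) = some 0
    have h1 : m0⁻¹ (some 0) = some 13 := by rw [Equiv.Perm.inv_eq_iff_eq, h0]
    rw [h1, ind_13 (hjc x), h0]
  refine ⟨ψ.codRestrict Spor.M22 hmem, ?_, ?_⟩
  · rintro ⟨m, hm⟩
    have hm' : m0⁻¹ * m * m0 ∈ Spor.M23 := mul_mem (mul_mem (inv_mem hm0) hm.1) hm0
    obtain ⟨n, hn⟩ := BasInv.base.full _ hm'
    have hnN : n ∈ normalizer (A BasFi.e : Set Fi23) := Base.mem_normalizer_of hn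
    have hnz : n * z0 = z0 * n := by
      have h1 := hn (some 13)
      have h2 : (m0⁻¹ * m * m0) (some 13) = some 13 := by
        show m0⁻¹ (m (m0 (some 13))) = some 13
        rw [h0]
        have h3 : m (some 0) = some 0 := hm.2
        rw [h3, Equiv.Perm.inv_eq_iff_eq, h0]
      rw [h2, BasFi.e_z] at h1
      exact mul_inv_eq_iff_eq_mul.1 h1
    refine ⟨⟨⟨n, mem_centralizer_singleton_iff.2 hnz⟩, mem_subgroupOf.2 hnN⟩, Subtype.ext ?_⟩
    show m0 * ((BasInv.base.ind ⟨n, hnN⟩ : Spor.M23) : Equiv.Perm GolayPt) * m0⁻¹ = m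
    rw [Base.ind_eq BasInv.base (n := ⟨n, hnN⟩) hn]
    group
  · intro x
    constructor
    · intro hx
      have h1 : ψ x = 1 := congrArg Subtype.val hx
      rw [hψ] at h1
      have h2 : ((BasInv.base.ind (j x) : Spor.M23) : Equiv.Perm GolayPt) = 1 := by
        have e : ((BasInv.base.ind (j x) : Spor.M23) : Equiv.Perm GolayPt) =
            m0⁻¹ * (m0 * ((BasInv.base.ind (j x) : Spor.M23) : Equiv.Perm GolayPt) * m0⁻¹) * m0 := by group
        rw [e, h1, mul_one, inv_mul_cancel]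
      exact (Base.ind_ker BasInv.base (j x)).1 (Subtype.ext h2)
    · intro hx
      have h1 : BasInv.base.ind (j x) = 1 := (Base.ind_ker BasInv.base (j x)).2 hx
      refine Subtype.ext ?_
      show ψ x = 1
      rw [hψ, h1, OneMemClass.coe_one, mul_one, mul_inv_cancel]

theorem le_C0 : A BasFi.e ≤ C0 := H836.Thompson.JData.le_cent H836.JFi23.jdata z0_mem

theorem mem_E (c : C0) : pi' c ∈ E ↔ (c : Fi23) ∈ A BasFi.e := by
  constructor
  · rintro ⟨x, hx, hxc⟩
    have hx' : (x : Fi23) ∈ A BasFi.e := hx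
    have h1 : pi' (x⁻¹ * c) = 1 := by rw [map_mul, map_inv, hxc, inv_mul_cancel]
    rcases (R08.FlagData.lifted.ext.ker _).1 h1 with h2 | h2
    · rw [← inv_mul_eq_one.1 h2]
      exact hx'
    · have h3 : c = x * zel z0 := by rw [← h2, mul_inv_cancel_left]
      rw [h3]
      exact mul_mem hx' z0_mem
  · intro h
    exact ⟨c, h, rfl⟩

theorem mem_norm (c : C0) : pi' c ∈ normalizer (E : Set Fi22) ↔ (c : Fi23) ∈ normalizer (A BasFi.e : Set Fi23) := by
  constructor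
  · intro h
    rw [mem_normalizer_iff] at h ⊢
    intro x
    have key : ∀ x : C0, (x : Fi23) ∈ A BasFi.e ↔ (c : Fi23) * x * (c : Fi23)⁻¹ ∈ A BasFi.e := by
      intro x
      rw [← mem_E x, h (pi' x), ← map_inv, ← map_mul, ← map_mul, mem_E]
      rfl
    constructor
    · intro hx
      exact (key ⟨x, le_C0 hx⟩).1 hx
    · intro hx
      have h1 : x ∈ C0 := by
        have h2 := mul_mem (mul_mem (inv_mem c.2) (le_C0 hx)) c.2
        rwa [show (c : Fi23)⁻¹ * ((c : Fi23) * x * (c : Fi23)⁻¹) * c = x by group] at h2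
      exact (key ⟨x, h1⟩).2 hx
  · intro h
    rw [mem_normalizer_iff] at h ⊢
    intro x
    obtain ⟨y, rfl⟩ := R08.FlagData.lifted.ext.surj x
    rw [← map_inv, ← map_mul, ← map_mul, mem_E, mem_E]
    exact h y

theorem iso : Spor.IsoFi22 Fi22 := ⟨MulEquiv.refl _⟩

/-- an element of order divisible by 11 normalising `E` has no fixed point on `E` -/
theorem fpf {α : Fi22} (hα : α ∈ normalizer (E : Set Fi22)) (h11 : 11 ∣ orderOf α) {x : Fi22} (hx : x ∈ E)
    (hc : α * x = x * α) : x = 1 := by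
  have hfin := H559.FiSpec.finite_of iso
  obtain ⟨k, hk⟩ := H455.Isolated.exists_pow_orderOf h11
  have hN : α ^ k ∈ normalizer (E : Set Fi22) := pow_mem hα k
  have h1 := LThreeFi22.fix_modEq (r := 11) (by norm_num) (y := α ^ k) (by rw [← hk, pow_orderOf_eq_one])
    (S := (E : Set Fi22)) (fun s hs => ((mem_normalizer_iff.1 hN) s).1 hs)
  have h2 : (E : Set Fi22).ncard = 1024 := by
    have h3 := H836.JFi22.jdata.card
    rw [← Nat.card_coe_set_eq]
    exact h3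
  set F : Subgroup Fi22 := E ⊓ centralizer ({α ^ k} : Set Fi22) with hF
  have h3 : {s | s ∈ (E : Set Fi22) ∧ α ^ k * s = s * α ^ k} = (F : Set Fi22) := by
    ext s
    constructor
    · rintro ⟨h4, h5⟩
      exact ⟨h4, mem_centralizer_singleton_iff.2 h5.symm⟩
    · rintro ⟨h4, h5⟩
      exact ⟨h4, (mem_centralizer_singleton_iff.1 h5).symm⟩
  rw [h2, h3] at h1
  have h4 : Nat.card F ∣ 22 := by
    rw [← H559.FiSpec.cent11 iso hk]
    exact card_dvd_of_le inf_le_right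
  have h5 : Nat.card F ∣ 2 ^ 10 := by
    rw [← H836.JFi22.jdata.card]
    exact card_dvd_of_le inf_le_left
  have h6 : Nat.card F ∣ 2 := by
    have := Nat.dvd_gcd h4 h5
    rwa [show Nat.gcd 22 (2 ^ 10) = 2 by norm_num] at this
  have h7 : (F : Set Fi22).ncard = Nat.card F := (Nat.card_coe_set_eq _).symm
  rw [h7] at h1
  have h8 : Nat.card F = 1 := by
    rcases (Nat.dvd_prime Nat.prime_two).1 h6 with h | h
    · exact h
    · rw [h] at h1
      exact absurd h1 (by decide)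
  have h9 : x ∈ F := ⟨hx, mem_centralizer_singleton_iff.2 ((show Commute α x from hc).pow_left k).eq.symm⟩
  rw [card_eq_one.1 h8] at h9
  exact h9

/-- **the elements of `2¹⁰:M22`** -/
theorem isC_of_norm {l : Fi22} (hl : l ∈ normalizer (E : Set Fi22)) : IsC l := by
  have hfin := H559.FiSpec.finite_of iso
  obtain ⟨φ, hφ, hk⟩ := exists_phi
  obtain ⟨c, rfl⟩ := R08.FlagData.lifted.ext.surj l
  have hcN := (mem_norm c).1 hl
  set n : N0 := ⟨c, mem_subgroupOf.2 hcN⟩ with hn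
  obtain ⟨a, b, hao, hab⟩ := H517.Ore.MAll.oreA_M22 (φ n)
  obtain ⟨a', rfl⟩ := hφ a
  obtain ⟨b', rfl⟩ := hφ b
  have hα : pi' (a' : C0) ∈ normalizer (E : Set Fi22) := (mem_norm _).2 (mem_subgroupOf.1 a'.2)
  have hβ : pi' (b' : C0) ∈ normalizer (E : Set Fi22) := (mem_norm _).2 (mem_subgroupOf.1 b'.2)
  have h11 : 11 ∣ orderOf (pi' (a' : C0)) := by
    rw [← hao]
    apply orderOf_dvd_of_pow_eq_one
    rw [← map_pow, hk]
    have h1 : pi' ((a' : C0) ^ orderOf (pi' (a' : C0))) = 1 := by rw [map_pow, pow_orderOf_eq_one]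
    have h2 : pi' ((a' : C0) ^ orderOf (pi' (a' : C0))) ∈ E := by rw [h1]; exact one_mem _
    exact (mem_E _).1 h2
  let H := normalizer (E : Set Fi22)
  let EH : Subgroup H := E.subgroupOf H
  have hEH : ∀ x : H, x ∈ EH ↔ (x : Fi22) ∈ E := fun x => mem_subgroupOf
  have hnorm : EH.Normal := ⟨fun x hx g => (hEH _).2 (((mem_normalizer_iff.1 g.2) x).1 ((hEH x).1 hx))⟩
  have habel : ∀ x ∈ EH, ∀ y ∈ EH, x * y = y * x := by
    intro x hx y hy
    apply Subtype.ext
    have e1 := H836.JFi22.jdata.sq _ ((hEH x).1 hx)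
    have e2 := H836.JFi22.jdata.sq _ ((hEH y).1 hy)
    have e3 := H836.JFi22.jdata.sq _ (mul_mem ((hEH x).1 hx) ((hEH y).1 hy))
    show (x : Fi22) * y = y * x
    rw [eq_inv_of_mul_eq_one_left e3, mul_inv_rev, inv_eq_of_mul_eq_one_left e1, inv_eq_of_mul_eq_one_left e2]
  let αH : H := ⟨_, hα⟩
  let βH : H := ⟨_, hβ⟩
  let lH : H := ⟨_, hl⟩
  have hfp : H6.ORE.FP EH αH βH := H6.ORE.FP.of_left hnorm βH fun x hx h => by
    apply Subtype.ext
    refine fpf hα h11 ((hEH x).1 hx) ?_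
    have h1 : pi' (a' : C0) * (x : Fi22) * (pi' (a' : C0))⁻¹ = x := congrArg Subtype.val h
    exact mul_inv_eq_iff_eq_mul.1 h1
  have hc : lH * (αH * βH * αH⁻¹ * βH⁻¹)⁻¹ ∈ EH := by
    rw [hEH]
    show pi' c * (pi' (a' : C0) * pi' (b' : C0) * (pi' (a' : C0))⁻¹ * (pi' (b' : C0))⁻¹)⁻¹ ∈ E
    simp only [← map_inv, ← map_mul]
    rw [mem_E]
    have h1 : φ (n * (a' * b' * a'⁻¹ * b'⁻¹)⁻¹) = 1 := by
      simp only [map_mul, map_inv]
      rw [hab, mul_inv_cancel]
    exact (hk _).1 h1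
  obtain ⟨q1, -, q2, -, h⟩ := H6.ORE.exists_comm_of_FP hnorm habel hfp hc
  exact ⟨_, _, congrArg Subtype.val h⟩

/-- **the 2-elements** -/
theorem isC_two {x : Fi22} {k : ℕ} (hx : x ^ 2 ^ k = 1) : IsC x := by
  have hfin := H559.FiSpec.finite_of iso
  have h2 : Fact (Nat.Prime 2) := ⟨Nat.prime_two⟩
  have hp : IsPGroup 2 ↥(zpowers x) := by
    obtain ⟨k, -, hk⟩ := (Nat.dvd_prime_pow Nat.prime_two).1 (orderOf_dvd_of_pow_eq_one hx)
    exact IsPGroup.of_card (n := k) (by rw [Nat.card_zpowers, hk])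
  obtain ⟨q, hq⟩ := hp.nonempty_fixed_point_of_prime_not_dvd_card (Fi22 ⧸ normalizer (E : Set Fi22))
    H836.JFi22.jdata.odd
  obtain ⟨g, rfl⟩ := QuotientGroup.mk_surjective q
  have h3 : (QuotientGroup.mk (x * g) : Fi22 ⧸ normalizer (E : Set Fi22)) = QuotientGroup.mk g :=
    hq ⟨x, mem_zpowers x⟩
  have h4 := QuotientGroup.eq.1 h3.symm
  refine IsC.of_conj g⁻¹ (isC_of_norm ?_)
  rwa [inv_inv, mul_assoc]

end Cfsg.Agent.H3.Ore.FTwo
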